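import Cfsg.Agent.Comp.Extra

set_option autoImplicit false
set_option maxRecDepth 100000

namespace Cfsg.Agent.SchurG.Om6
open Cfsg.Agent.Comp

def R : List (List Nat) :=
  [[0, 0],
   [1, 1],
   [2, 2],
   [3, 3],
   [4, 5],
   [5, 4],
   [6, 6],
   [7, 7],
   [0, 1, 0, 1],
   [0, 2, 0, 2],
   [1, 2, 1, 2],
   [0, 3, 0, 3],
   [1, 3, 1, 3],
   [2, 3, 2, 3],
   [4, 4, 4],
   [1, 4, 3, 5],
   [1, 3, 4, 1, 5],
   [2, 3, 4, 2, 5],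
   [0, 1, 5, 0, 4],
   [1, 2, 6, 1, 2, 6],
   [1, 5, 6, 4, 1, 6],
   [0, 6, 0, 6, 0, 6],
   [0, 4, 0, 6, 1, 5, 6],
   [1, 6, 3, 6, 2, 6, 3, 6],
   [0, 7, 0, 7],
   [3, 7, 3, 7],
   [4, 7, 4, 7],
   [0, 2, 7, 2, 7],
   [6, 7, 6, 7, 6, 7, 6, 7],
   [3, 6, 7, 6, 3, 6, 7, 6, 3, 6, 7, 6]]

def iv : Nat := 325702542002208

/-- the presented group -/
abbrev G : Type := Pres 8 R

/-- the letters -/
def s : ℕ → G := presS 8 R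

theorem hR : ∀ w ∈ R, ∀ x ∈ w, x < 8 := by decide +kernel

theorem pres : IsPres s 8 R := isPres_pres hR

end Cfsg.Agent.SchurG.Om6
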